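import Cfsg.Agent.Lib.KnownSimple.CoxeterCert.Basic
import Cfsg.Agent.Lib.Twisted.CoxeterB2

/-! Centre and generation certificates for the Coxeter group of type B2. -/

set_option autoImplicit false

namespace CfsgLib.KnownSimple.CoxeterCert.B2

open CfsgLib.Twisted.Cox

def m0 : List (List ℤ) := [[-1, -1], [2, 1]]
def m1 : List (List ℤ) := [[-1, 0], [0, -1]]
def m2 : List (List ℤ) := [[1, 1], [0, -1]]
def m3 : List (List ℤ) := [[-1, 0], [2, 1]]

def pre : List (List (List ℤ)) := [[[1, 0], [0, 1]], [[-1, 0], [2, 1]], [[-1, -1], [2, 1]]]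
def gens : List (List (List ℤ)) := [[[-1, 0], [2, 1]], [[1, 1], [0, -1]]]

theorem hdiag : ∀ i, cartB2Cox i i = 2 := by decide +kernel

theorem rho_cox : rho towerB2 ((List.finRange 2).map ((((CoxeterMatrix.B 2)) : CoxeterMatrix (Fin 2))).simple).prod = toMat 2 m0 :=
  (rho_coxElt towerB2 pre gens (by decide +kernel) (by decide +kernel) (by decide +kernel)).trans
    (by decide +kernel)

theorem eq_top (S : Subgroup ((((CoxeterMatrix.B 2)) : CoxeterMatrix (Fin 2))).Group)
    (hc : ((List.finRange 2).map ((((CoxeterMatrix.B 2)) : CoxeterMatrix (Fin 2))).simple).prod ∈ S)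
    (ht1 : ((((CoxeterMatrix.B 2)) : CoxeterMatrix (Fin 2))).simple 1 ∈ S) : S = ⊤ := by
  have e0 : Mem towerB2 S m0 := ⟨_, hc, rho_cox⟩
  have e2 : Mem towerB2 S m2 := ⟨_, ht1, rho_simple towerB2 1 m2 (by decide +kernel)⟩
  have e3 : Mem towerB2 S m3 := Mem.mul e0 e2 (by decide +kernel)
  refine eq_top_of_simple_mem fun i => ?_
  fin_cases i
  · exact Mem.simple_mem e3 (by decide +kernel)
  · exact Mem.simple_mem e2 (by decide +kernel)

theorem center_eq :
    Nat.card (Subgroup.center ((((CoxeterMatrix.B 2)) : CoxeterMatrix (Fin 2))).Group) = 2 ∧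
      Subgroup.center ((((CoxeterMatrix.B 2)) : CoxeterMatrix (Fin 2))).Group ≤ Subgroup.zpowers ((List.finRange 2).map ((((CoxeterMatrix.B 2)) : CoxeterMatrix (Fin 2))).simple).prod := by
  have hc : ((List.finRange 2).map ((((CoxeterMatrix.B 2)) : CoxeterMatrix (Fin 2))).simple).prod ∈ Subgroup.zpowers ((List.finRange 2).map ((((CoxeterMatrix.B 2)) : CoxeterMatrix (Fin 2))).simple).prod := Subgroup.mem_zpowers _
  have e0 : Mem towerB2 (Subgroup.zpowers ((List.finRange 2).map ((((CoxeterMatrix.B 2)) : CoxeterMatrix (Fin 2))).simple).prod) m0 := ⟨_, hc, rho_cox⟩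
  have e1 : Mem towerB2 (Subgroup.zpowers ((List.finRange 2).map ((((CoxeterMatrix.B 2)) : CoxeterMatrix (Fin 2))).simple).prod) m1 := Mem.mul e0 e0 (by decide +kernel)
  exact center_two towerB2 hdiag 0 ![0, 0] (by decide +kernel) e1 (by decide +kernel)

end CfsgLib.KnownSimple.CoxeterCert.B2
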