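import Mathlib
import Cfsg.Agent.Lib.Twisted.CoxeterOrder

/-!
Integer matrix certificates inside finite Coxeter groups: centre and generation.
-/

set_option autoImplicit false

namespace CfsgLib.KnownSimple.CoxeterCert

open CfsgLib.Twisted.Cox

variable {n : ℕ} {M : CoxeterMatrix (Fin n)} {A : Fin n → Fin n → ℤ} {Ls : List Level}

/-- An entry of a list of rows. -/
def ent (n : ℕ) (l : List (List ℤ)) (i j : Fin n) : ℤ := (l.getD i.val []).getD j.val 0

/-- A list of rows as a matrix. -/
def toMat (n : ℕ) (l : List (List ℤ)) : Matrix (Fin n) (Fin n) ℤ := Matrix.of (ent n l)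

@[simp]
lemma toMat_apply (n : ℕ) (l : List (List ℤ)) (i j : Fin n) : toMat n l i j = ent n l i j := rfl

/-- The faithful representation by integer matrices. -/
noncomputable def rho (T : Tower M A Ls) : M.Group →* Matrix (Fin n) (Fin n) ℤ :=
  (LinearMap.toMatrixAlgEquiv' : Module.End ℤ (Fin n → ℤ) ≃ₐ[ℤ] _).toMonoidHom.comp (rep T.rel)

lemma rho_injective (T : Tower M A Ls) : Function.Injective (rho T) :=
  (LinearMap.toMatrixAlgEquiv' : Module.End ℤ (Fin n → ℤ) ≃ₐ[ℤ] _).injective.comp T.spec.2

lemma rho_mulVec (T : Tower M A Ls) (g : M.Group) (v : Fin n → ℤ) :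
    (rho T g).mulVec v = rep T.rel g v := by
  show (LinearMap.toMatrixAlgEquiv' (rep T.rel g)).mulVec v = _
  rw [← Matrix.toLinAlgEquiv'_apply, Matrix.toLinAlgEquiv'_toMatrixAlgEquiv']

lemma rho_simple (T : Tower M A Ls) (i : Fin n) (l : List (List ℤ))
    (h : ∀ r k, ent n l r k = refl A i (Pi.single k 1) r) :
    rho T (M.simple i) = toMat n l := by
  ext r k
  simp only [toMat_apply]
  rw [h, ← rep_simple T.rel i, ← rho_mulVec T, Matrix.mulVec_single_one]
  rfl

/-- Some element of `S` has the given matrix. -/
def Mem (T : Tower M A Ls) (S : Subgroup M.Group) (l : List (List ℤ)) : Prop :=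
  ∃ g ∈ S, rho T g = toMat n l

lemma Mem.mul {T : Tower M A Ls} {S : Subgroup M.Group} {a b c : List (List ℤ)} (ha : Mem T S a)
    (hb : Mem T S b) (h : ∀ i j, ∑ k, ent n a i k * ent n b k j = ent n c i j) :
    Mem T S c := by
  obtain ⟨g, hg, hga⟩ := ha
  obtain ⟨g', hg', hgb⟩ := hb
  refine ⟨g * g', S.mul_mem hg hg', ?_⟩
  rw [map_mul, hga, hgb]
  ext i j
  simp only [Matrix.mul_apply, toMat_apply, h]

lemma Mem.simple_mem {T : Tower M A Ls} {S : Subgroup M.Group} {i : Fin n} {l : List (List ℤ)}
    (hm : Mem T S l) (h : ∀ r k, ent n l r k = refl A i (Pi.single k 1) r) : M.simple i ∈ S := by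
  obtain ⟨g, hg, hgl⟩ := hm
  rwa [← rho_injective T (hgl.trans (rho_simple T i l h).symm)]

lemma eq_top_of_simple_mem {S : Subgroup M.Group} (h : ∀ i, M.simple i ∈ S) : S = ⊤ := by
  rw [eq_top_iff, ← M.toCoxeterSystem.subgroup_closure_range_simple, Subgroup.closure_le]
  rintro _ ⟨i, rfl⟩
  simpa using h i

/-- The Coxeter element from a chain of prefix products. -/
lemma rho_coxElt (T : Tower M A Ls) (pre : List (List (List ℤ))) (gens : List (List (List ℤ)))
    (h0 : ∀ i j, ent n (pre.getD 0 []) i j = if i = j then 1 else 0)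
    (hg : ∀ (t : Fin n) r k, ent n (gens.getD t.val []) r k = refl A t (Pi.single k 1) r)
    (hs : ∀ (t : Fin n) i j, ∑ k, ent n (pre.getD t.val []) i k * ent n (gens.getD t.val []) k j =
      ent n (pre.getD (t.val + 1) []) i j) :
    rho T ((List.finRange n).map M.simple).prod = toMat n (pre.getD n []) := by
  have h : ∀ k ≤ n, rho T (((List.finRange n).take k).map M.simple).prod =
      toMat n (pre.getD k []) := by
    intro k
    induction k with
    | zero =>
      intro _
      rw [List.take_zero, List.map_nil, List.prod_nil, map_one]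
      ext i j
      rw [toMat_apply, h0, Matrix.one_apply]
    | succ k ih =>
      intro hk
      rw [List.take_succ_eq_append_getElem (by simp; omega), List.map_append, List.prod_append,
        map_mul, ih (by omega)]
      simp only [List.map_cons, List.map_nil, List.prod_cons, List.prod_nil, mul_one,
        List.getElem_finRange]
      rw [rho_simple T _ _ (hg _)]
      ext i j
      simp only [Matrix.mul_apply, toMat_apply]
      exact hs ⟨k, hk⟩ i j
  have := h n le_rfl
  rwa [List.take_of_length_le (by simp)] at this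

/-- A central element acts as `1` or `-1`. -/
theorem rho_center (T : Tower M A Ls) (hdiag : ∀ i, A i i = 2) (root : Fin n) (p : Fin n → Fin n)
    (hp : ∀ i, (p i = i ∨ A (p i) i ≠ 0) ∧ p^[n] i = root) {z : M.Group}
    (hz : z ∈ Subgroup.center M.Group) : rho T z = 1 ∨ rho T z = -1 := by
  set Z := rep T.rel z with hZ
  have hcomm : ∀ i v r, v i * Z (fun r => A r i) r = (Z v) i * A r i := by
    intro i v r
    have h := congrArg (fun g => rep T.rel g v) (Subgroup.mem_center_iff.1 hz (M.simple i))
    simp only [map_mul, rep_simple, Module.End.mul_apply] at h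
    have e : refl A i v = v - v i • fun r => A r i := funext fun r => by
      show v r - A r i * v i = v r - v i * A r i
      ring
    have h' := congrFun h r
    rw [e, map_sub, map_smul] at h'
    change Z v r - A r i * Z v i = Z v r - v i * Z (fun r => A r i) r at h'
    linarith
  have hoff : ∀ i j : Fin n, j ≠ i → Z (Pi.single j 1) i = 0 := by
    intro i j hji
    have h := hcomm i (Pi.single j 1) i
    rw [Pi.single_eq_of_ne hji.symm, zero_mul, hdiag] at h
    linarith
  set c : Fin n → ℤ := fun i => Z (Pi.single i 1) i with hc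
  have hZv : ∀ v r, Z v r = c r * v r := by
    intro v r
    conv_lhs => rw [pi_eq_sum_univ' v, map_sum, Finset.sum_apply]
    rw [Finset.sum_eq_single r (fun j _ hj => by rw [map_smul, Pi.smul_apply, hoff r j hj, smul_zero])
      (by simp), map_smul, Pi.smul_apply, smul_eq_mul, mul_comm]
  have hedge : ∀ i, c (p i) = c i := by
    intro i
    rcases (hp i).1 with h | h
    · rw [h]
    · have h' := hcomm i (Pi.single i 1) (p i)
      rw [Pi.single_eq_same, one_mul, hZv] at h'
      exact mul_right_cancel₀ h h'
  have hconst : ∀ i, c i = c root := by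
    intro i
    have : ∀ k, c (p^[k] i) = c i := by
      intro k
      induction k with
      | zero => rfl
      | succ k ih => rw [Function.iterate_succ_apply', hedge, ih]
    rw [← this n, (hp i).2]
  have hmat : rho T z = c root • (1 : Matrix (Fin n) (Fin n) ℤ) := by
    ext r k
    have h := congrFun (rho_mulVec T z (Pi.single k 1)) r
    rw [Matrix.mulVec_single_one, hZv, hconst] at h
    simpa [Matrix.one_apply, Pi.single_apply] using h
  obtain ⟨e, he0, he⟩ : ∃ e, 0 < e ∧ z ^ e = 1 := by
    have hfin : Finite M.Group := Nat.finite_of_card_ne_zero (by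
      rw [T.spec.1]
      intro h0
      rw [List.prod_eq_zero_iff] at h0
      obtain ⟨L, hL, hL0⟩ := List.mem_map.1 h0
      have := T.levels L hL
      simp [checkLevel, hL0] at this)
    exact ⟨orderOf z, orderOf_pos z, pow_orderOf_eq_one z⟩
  have hpow : c root ^ e = 1 := by
    have h := congrArg (rho T) he
    rw [map_pow, hmat, smul_pow, one_pow, map_one] at h
    have h' := congrFun (congrFun h root) root
    simpa using h'
  rcases Int.isUnit_iff.1 (IsUnit.of_pow_eq_one hpow he0.ne') with h | h
  · exact Or.inl (by rw [hmat, h, one_smul])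
  · exact Or.inr (by rw [hmat, h, neg_one_smul])

/-- Centre of order two, inside the powers of the Coxeter element. -/
theorem center_two (T : Tower M A Ls) (hdiag : ∀ i, A i i = 2) (root : Fin n) (p : Fin n → Fin n)
    (hp : ∀ i, (p i = i ∨ A (p i) i ≠ 0) ∧ p^[n] i = root) {c : M.Group} {l : List (List ℤ)}
    (hm : Mem T (Subgroup.zpowers c) l) (hl : ∀ i j, ent n l i j = if i = j then -1 else 0) :
    Nat.card (Subgroup.center M.Group) = 2 ∧ Subgroup.center M.Group ≤ Subgroup.zpowers c := by
  obtain ⟨w, hw, hwl⟩ := hm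
  have hw1 : rho T w = -1 := by
    rw [hwl]
    ext i j
    rw [toMat_apply, hl, Matrix.neg_apply, Matrix.one_apply]
    split_ifs <;> simp
  have hwc : w ∈ Subgroup.center M.Group :=
    Subgroup.mem_center_iff.2 fun g => rho_injective T (by simp [map_mul, hw1])
  have hne : w ≠ 1 := fun h => by
    have h' := congrFun (congrFun (hw1.symm.trans (by rw [h, map_one])) root) root
    simp at h'
  have hall : ∀ z ∈ Subgroup.center M.Group, z = 1 ∨ z = w := fun z hz =>
    (rho_center T hdiag root p hp hz).imp
      (fun h => rho_injective T (h.trans (map_one _).symm))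
      (fun h => rho_injective T (h.trans hw1.symm))
  refine ⟨?_, fun z hz => ?_⟩
  · rw [Nat.card_eq_two_iff]
    refine ⟨1, ⟨w, hwc⟩, fun h => hne (congrArg Subtype.val h).symm, Set.eq_univ_of_forall fun z => ?_⟩
    rcases hall z.1 z.2 with h | h
    · exact Or.inl (Subtype.ext h)
    · exact Or.inr (Subtype.ext h)
  · rcases hall z hz with rfl | rfl
    · exact Subgroup.one_mem _
    · exact hw

/-- Trivial centre, from an invariant list of vectors without antipode. -/
theorem center_one (T : Tower M A Ls) (hdiag : ∀ i, A i i = 2) (root : Fin n) (p : Fin n → Fin n)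
    (hp : ∀ i, (p i = i ∨ A (p i) i ≠ 0) ∧ p^[n] i = root) (c : M.Group)
    (orb : List (List ℤ)) (v : List ℤ) (hv : v ∈ orb)
    (hclosed : ∀ l ∈ orb, ∀ i, ∃ l' ∈ orb, ∀ r, vec (n := n) l' r = refl A i (vec l) r)
    (hnot : ∀ l ∈ orb, ∃ r, vec (n := n) l r ≠ -vec (n := n) v r) :
    Nat.card (Subgroup.center M.Group) = 1 ∧ Subgroup.center M.Group ≤ Subgroup.zpowers c := by
  have horb : ∀ g : M.Group, ∃ l ∈ orb, rep T.rel g (vec v) = vec l := by
    intro g
    induction g using M.toCoxeterSystem.simple_induction_left with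
    | one => exact ⟨v, hv, by simp⟩
    | mul_simple_left g i ih =>
      obtain ⟨l, hl, e⟩ := ih
      obtain ⟨l', hl', e'⟩ := hclosed l hl i
      refine ⟨l', hl', ?_⟩
      rw [map_mul, Module.End.mul_apply, e]
      simp only [CoxeterMatrix.toCoxeterSystem_simple, rep_simple]
      exact (funext e').symm
  have hbot : Subgroup.center M.Group = ⊥ := by
    rw [eq_bot_iff]
    intro z hz
    rcases rho_center T hdiag root p hp hz with h | h
    · exact rho_injective T (h.trans (map_one _).symm)
    · exfalso
      obtain ⟨l, hl, e⟩ := horb z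
      obtain ⟨r, hr⟩ := hnot l hl
      apply hr
      rw [← e, ← rho_mulVec T, h, Matrix.neg_mulVec, Matrix.one_mulVec, Pi.neg_apply]
  rw [hbot]
  exact ⟨Subgroup.card_bot, bot_le⟩

end CfsgLib.KnownSimple.CoxeterCert
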