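import Cfsg.Agent.Lib.KnownSimple.CoxeterCert.Basic
import Cfsg.Agent.Lib.Twisted.CoxeterG2

/-! Centre and generation certificates for the Coxeter group of type G2. -/

set_option autoImplicit false

namespace CfsgLib.KnownSimple.CoxeterCert.G2

open CfsgLib.Twisted.Cox

def m0 : List (List ℤ) := [[-1, -1], [3, 2]]
def m1 : List (List ℤ) := [[-2, -1], [3, 1]]
def m2 : List (List ℤ) := [[-1, 0], [0, -1]]
def m3 : List (List ℤ) := [[1, 1], [0, -1]]
def m4 : List (List ℤ) := [[-1, 0], [3, 1]]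

def pre : List (List (List ℤ)) := [[[1, 0], [0, 1]], [[-1, 0], [3, 1]], [[-1, -1], [3, 2]]]
def gens : List (List (List ℤ)) := [[[-1, 0], [3, 1]], [[1, 1], [0, -1]]]

theorem hdiag : ∀ i, cartG2Cox i i = 2 := by decide +kernel

theorem rho_cox : rho towerG2 ((List.finRange 2).map (((CoxeterMatrix.G₂) : CoxeterMatrix (Fin 2))).simple).prod = toMat 2 m0 :=
  (rho_coxElt towerG2 pre gens (by decide +kernel) (by decide +kernel) (by decide +kernel)).trans
    (by decide +kernel)

theorem eq_top (S : Subgroup (((CoxeterMatrix.G₂) : CoxeterMatrix (Fin 2))).Group)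
    (hc : ((List.finRange 2).map (((CoxeterMatrix.G₂) : CoxeterMatrix (Fin 2))).simple).prod ∈ S)
    (ht1 : (((CoxeterMatrix.G₂) : CoxeterMatrix (Fin 2))).simple 1 ∈ S) : S = ⊤ := by
  have e0 : Mem towerG2 S m0 := ⟨_, hc, rho_cox⟩
  have e3 : Mem towerG2 S m3 := ⟨_, ht1, rho_simple towerG2 1 m3 (by decide +kernel)⟩
  have e4 : Mem towerG2 S m4 := Mem.mul e0 e3 (by decide +kernel)
  refine eq_top_of_simple_mem fun i => ?_
  fin_cases i
  · exact Mem.simple_mem e4 (by decide +kernel)
  · exact Mem.simple_mem e3 (by decide +kernel)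

theorem center_eq :
    Nat.card (Subgroup.center (((CoxeterMatrix.G₂) : CoxeterMatrix (Fin 2))).Group) = 2 ∧
      Subgroup.center (((CoxeterMatrix.G₂) : CoxeterMatrix (Fin 2))).Group ≤ Subgroup.zpowers ((List.finRange 2).map (((CoxeterMatrix.G₂) : CoxeterMatrix (Fin 2))).simple).prod := by
  have hc : ((List.finRange 2).map (((CoxeterMatrix.G₂) : CoxeterMatrix (Fin 2))).simple).prod ∈ Subgroup.zpowers ((List.finRange 2).map (((CoxeterMatrix.G₂) : CoxeterMatrix (Fin 2))).simple).prod := Subgroup.mem_zpowers _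
  have e0 : Mem towerG2 (Subgroup.zpowers ((List.finRange 2).map (((CoxeterMatrix.G₂) : CoxeterMatrix (Fin 2))).simple).prod) m0 := ⟨_, hc, rho_cox⟩
  have e1 : Mem towerG2 (Subgroup.zpowers ((List.finRange 2).map (((CoxeterMatrix.G₂) : CoxeterMatrix (Fin 2))).simple).prod) m1 := Mem.mul e0 e0 (by decide +kernel)
  have e2 : Mem towerG2 (Subgroup.zpowers ((List.finRange 2).map (((CoxeterMatrix.G₂) : CoxeterMatrix (Fin 2))).simple).prod) m2 := Mem.mul e1 e0 (by decide +kernel)
  exact center_two towerG2 hdiag 0 ![0, 0] (by decide +kernel) e2 (by decide +kernel)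

end CfsgLib.KnownSimple.CoxeterCert.G2
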